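import Cfsg.Agent.PQ.Th.Plc

/-!
# PQ, places: isometries of pairs and orthogonal splittings (helper76)

* `Is Φ g Φ' g'` : the isometries which intertwine `g` and `g'`; `card_cen`;
* `Dj x x'` : no common eigenvalue; `Dj.zero`; `sub_of_col`;
* `Spl` : `spl_symm`, `spl_iso`, `spl_left`, `spl_right`, `spl_dim`, `spl_cf`, `spl_col`, `exists_sum`;
* `isProd`, `is_sum`, `is_cancel`, `cen_spl`;
* `Sd g P`, `exists_spl` : the primary splitting; `sd_mp`, `exists_spl_set`, `spl_of`, `col_inv`.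
-/

set_option autoImplicit false
set_option linter.unusedSectionVars false

namespace Cfsg.Agent.PQ.Gl

open Module Polynomial Cfsg Cfsg.Agent.H615.GU Cfsg.Agent.PQ.Mk Cfsg.Agent.H794.GUT Cfsg.Agent.PQ.Th Cfsg.Agent.H152

variable {o : Bool} {F V V' V'' V₁ V₂ V₁' V₂' : Type} [Field F] [AddCommGroup V] [Module F V] [AddCommGroup V']
  [Module F V'] [AddCommGroup V''] [Module F V''] [AddCommGroup V₁] [Module F V₁] [AddCommGroup V₂] [Module F V₂]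
  [AddCommGroup V₁'] [Module F V₁'] [AddCommGroup V₂'] [Module F V₂']

/-! ### isometries of pairs -/

/-- the isometries which intertwine `g` and `g'` -/
def Is (Φ : Fm o F V) (g : Φ.G) (Φ' : Fm o F V') (g' : Φ'.G) : Type :=
  {i : V ≃ₗ[F] V' // (∀ u v, Φ'.B (i u) (i v) = Φ.B u v) ∧ (∀ v, Φ'.Q (i v) = Φ.Q v) ∧ ∀ v, i (g.1 v) = g'.1 (i v)}

/-- isometric pairs -/
def Iso (Φ : Fm o F V) (g : Φ.G) (Φ' : Fm o F V') (g' : Φ'.G) : Prop :=
  ∃ i : V ≃ₗ[F] V', (∀ u v, Φ'.B (i u) (i v) = Φ.B u v) ∧ (∀ v, Φ'.Q (i v) = Φ.Q v) ∧ ∀ v, i (g.1 v) = g'.1 (i v)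

variable {Φ : Fm o F V} {g : Φ.G} {Φ' : Fm o F V'} {g' : Φ'.G} {Φ'' : Fm o F V''} {g'' : Φ''.G} {Φ₁ : Fm o F V₁} {g₁ : Φ₁.G}
  {Φ₂ : Fm o F V₂} {g₂ : Φ₂.G} {Φ₁' : Fm o F V₁'} {g₁' : Φ₁'.G} {Φ₂' : Fm o F V₂'} {g₂' : Φ₂'.G}

theorem iso_iff : Iso Φ g Φ' g' ↔ Nonempty (Is Φ g Φ' g') := ⟨fun ⟨i, h⟩ => ⟨⟨i, h⟩⟩, fun ⟨i⟩ => ⟨i.1, i.2⟩⟩

theorem Iso.refl (g : Φ.G) : Iso Φ g Φ g := ⟨LinearEquiv.refl F V, fun _ _ => rfl, fun _ => rfl, fun _ => rfl⟩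

theorem Iso.symm (h : Iso Φ g Φ' g') : Iso Φ' g' Φ g := by
  obtain ⟨i, h1, h2, h3⟩ := h
  refine ⟨i.symm, fun u v => ?_, fun v => ?_, fun v => ?_⟩
  · rw [← h1, i.apply_symm_apply, i.apply_symm_apply]
  · rw [← h2, i.apply_symm_apply]
  · rw [i.symm_apply_eq, h3, i.apply_symm_apply]

theorem Iso.trans (h : Iso Φ g Φ' g') (h' : Iso Φ' g' Φ'' g'') : Iso Φ g Φ'' g'' := by
  obtain ⟨i, h1, h2, h3⟩ := h
  obtain ⟨j, k1, k2, k3⟩ := h'
  exact ⟨i.trans j, fun u v => (k1 _ _).trans (h1 u v), fun v => (k2 _).trans (h2 v),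
    fun v => (congrArg j (h3 v)).trans (k3 _)⟩

theorem iso_iff_conj {g g' : Φ.G} : Iso Φ g Φ g' ↔ IsConj g g' := by
  rw [isConj_iff]
  constructor
  · rintro ⟨i, h1, h2, h3⟩
    refine ⟨⟨i, h1, h2⟩, ?_⟩
    rw [mul_inv_eq_iff_eq_mul]
    exact Subtype.ext (LinearEquiv.ext h3)
  · rintro ⟨c, hc⟩
    rw [mul_inv_eq_iff_eq_mul] at hc
    exact ⟨c.1, c.2.1, c.2.2, fun v => LinearEquiv.congr_fun (congrArg Subtype.val hc) v⟩

/-- transport of an element along an isometry -/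
theorem exists_iso (g : Φ.G) (e : V ≃ₗ[F] V') (hB : ∀ u v, Φ'.B (e u) (e v) = Φ.B u v) (hQ : ∀ v, Φ'.Q (e v) = Φ.Q v) :
    ∃ g' : Φ'.G, Iso Φ g Φ' g' := by
  refine ⟨⟨(e.symm.trans g.1).trans e, fun u v => ?_, fun v => ?_⟩, e, hB, hQ, fun v => ?_⟩
  · show Φ'.B (e (g.1 (e.symm u))) (e (g.1 (e.symm v))) = _
    rw [hB, g.2.1, ← hB, e.apply_symm_apply, e.apply_symm_apply]
  · show Φ'.Q (e (g.1 (e.symm v))) = _
    rw [hQ, g.2.2, ← hQ, e.apply_symm_apply]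
  · show _ = e (g.1 (e.symm (e v)))
    rw [e.symm_apply_apply]

/-- transport of a form along a linear isomorphism -/
def Fm.tr (Φ : Fm o F V) (e : V ≃ₗ[F] V') : Fm o F V' where
  B := Φ.B.compl₁₂ e.symm.toLinearMap e.symm.toLinearMap
  Q := Φ.Q.comp e.symm.toLinearMap
  nd := ⟨fun x h => e.symm.map_eq_zero_iff.1 (Φ.nd.1 _ fun y => by simpa using h (e y)),
    fun x h => e.symm.map_eq_zero_iff.1 (Φ.nd.2 _ fun y => by simpa using h (e y))⟩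
  sp h := ⟨fun x => (Φ.sp h).1 _, by rw [(Φ.sp h).2]; rfl⟩
  og h := by
    refine LinearMap.ext₂ fun u v => ?_
    show Φ.Q (e.symm (u + v)) - Φ.Q (e.symm u) - Φ.Q (e.symm v) = Φ.B (e.symm u) (e.symm v)
    rw [map_add, Φ.polar h]

/-- every pair is isometric to a pair on `Fin n → F` -/
theorem exists_fin [FiniteDimensional F V] (g : Φ.G) :
    ∃ (n : ℕ) (Φ' : Fm o F (Fin n → F)) (g' : Φ'.G), Iso Φ g Φ' g' := by
  let e := (Module.finBasis F V).equivFun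
  obtain ⟨g', h⟩ := exists_iso (Φ' := Fm.tr Φ e) g e
    (fun u v => by show Φ.B (e.symm (e u)) (e.symm (e v)) = _; rw [e.symm_apply_apply, e.symm_apply_apply])
    fun v => by show Φ.Q (e.symm (e v)) = _; rw [e.symm_apply_apply]
  exact ⟨_, _, g', h⟩

theorem card_cen (g : Φ.G) : Nat.card (Subgroup.centralizer ({g} : Set Φ.G)) = Nat.card (Is Φ g Φ g) :=
  Nat.card_congr
    { toFun := fun c => ⟨c.1.1, c.1.2.1, c.1.2.2, fun v =>
        LinearEquiv.congr_fun (congrArg Subtype.val (Subgroup.mem_centralizer_singleton_iff.1 c.2)) v⟩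
      invFun := fun i => ⟨⟨i.1, i.2.1, i.2.2.1⟩, Subgroup.mem_centralizer_singleton_iff.2
        (Subtype.ext (LinearEquiv.ext i.2.2.2))⟩
      left_inv := fun _ => rfl
      right_inv := fun _ => rfl }

theorem Iso.dim (h : Iso Φ g Φ' g') : finrank F V = finrank F V' := h.choose.finrank_eq

theorem Iso.col [FiniteDimensional F V] [FiniteDimensional F V'] (h : Iso Φ g Φ' g') (φ : F[X]) :
    col (g.1 : End F V) φ = col (g'.1 : End F V') φ := col_congr h.choose h.choose_spec.2.2 φ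

theorem Iso.we [Finite F] [FiniteDimensional F V] [FiniteDimensional F V'] (h : Iso Φ g Φ' g') : WE Φ Φ' :=
  have := Module.finite_of_finite F (M := V)
  have := Module.finite_of_finite F (M := V')
  WE.of_cor ⟨_, graph_mem h.choose h.choose_spec.1 h.choose_spec.2.1⟩

/-! ### common eigenvalues -/

theorem col_mi [FiniteDimensional F V] {x : End F V} {φ : F[X]} (h : col x φ ≠ 0) : φ.Monic ∧ Irreducible φ := by
  by_contra hc
  exact h (by unfold col; exact dif_neg hc)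

/-- no common eigenvalue -/
def Dj [FiniteDimensional F V] [FiniteDimensional F V'] (x : End F V) (x' : End F V') : Prop :=
  ∀ φ : F[X], col x φ = 0 ∨ col x' φ = 0

theorem Dj.symm [FiniteDimensional F V] [FiniteDimensional F V'] {x : End F V} {x' : End F V'} (h : Dj x x') : Dj x' x :=
  fun φ => (h φ).symm

theorem Dj.zero [FiniteDimensional F V] [FiniteDimensional F V'] {x : End F V} {x' : End F V'} (h : Dj x x')
    (c : V →ₗ[F] V') (hc : ∀ v, c (x v) = x' (c v)) : c = 0 :=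
  intertwine_eq_zero (minpoly.aeval F x) (minpoly.aeval F x') (exists_coprime x x' fun φ _ _ => h φ) c hc

theorem sub_of_col [FiniteDimensional F V] {x : End F V} (h : ∀ φ, col x φ = 0) (v : V) : v = 0 :=
  LinearMap.congr_fun (Dj.zero (x := x) (x' := x) (fun φ => .inl (h φ)) LinearMap.id fun _ => rfl) v

theorem col_of_sub [FiniteDimensional F V] (x : End F V) (h : ∀ v : V, v = 0) (φ : F[X]) : col x φ = 0 := by
  by_contra hc
  obtain ⟨h1, h2⟩ := col_mi hc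
  refine hc ((kd_zero_iff x h1 h2).2 ?_)
  exact Submodule.finrank_eq_zero.2 ((Submodule.eq_bot_iff _).2 fun v _ => h v)

theorem col_of_inj [FiniteDimensional F V] {x : End F V} {P φ : F[X]} (h : Function.Injective (aeval x P)) (hd : φ ∣ P) :
    col x φ = 0 := by
  by_contra hc
  obtain ⟨h1, h2⟩ := col_mi hc
  refine hc ((kd_zero_iff x h1 h2).2 ?_)
  obtain ⟨r, rfl⟩ := hd
  refine Submodule.finrank_eq_zero.2 ((Submodule.eq_bot_iff _).2 fun v hv => h ?_)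
  rw [pow_one, LinearMap.mem_ker] at hv
  rw [mul_comm, map_mul, Module.End.mul_apply, hv, map_zero, map_zero]

theorem dvd_of_col [FiniteDimensional F V] {x : End F V} {P φ : F[X]} {n : ℕ} (h : aeval x (P ^ n) = 0) (hc : col x φ ≠ 0) :
    φ ∣ P := by
  obtain ⟨h1, h2⟩ := col_mi hc
  by_contra hd
  obtain ⟨a, b, hab⟩ := ((EuclideanDomain.dvd_or_coprime φ P h2).resolve_left hd).pow_right (n := n)
  refine hc ((kd_zero_iff x h1 h2).2 ?_)
  refine Submodule.finrank_eq_zero.2 ((Submodule.eq_bot_iff _).2 fun v hv => ?_)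
  rw [pow_one, LinearMap.mem_ker] at hv
  have h3 := LinearMap.congr_fun (congrArg (aeval x) hab) v
  rw [map_add, map_mul, map_mul, h, mul_zero, add_zero, Module.End.mul_apply, hv, map_zero, map_one] at h3
  exact h3.symm

/-- an automorphism without the eigenvalue `1` has no fixed vectors -/
theorem fix_of_col [FiniteDimensional F V] {x : End F V} (h : col x (X - C 1) = 0) (v : V) (hv : x v = v) : v = 0 := by
  have h1 := (kd_zero_iff x (monic_X_sub_C 1) (irreducible_X_sub_C 1)).1 h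
  refine (Submodule.eq_bot_iff _).1 (Submodule.finrank_eq_zero.1 h1) v ?_
  rw [pow_one, LinearMap.mem_ker, map_sub, aeval_X, aeval_C, map_one, LinearMap.sub_apply, hv]
  exact sub_self v

/-! ### splittings -/

variable [Finite F]

theorem spl_symm (h : Spl Φ g Φ₁ g₁ Φ₂ g₂) : Spl Φ g Φ₂ g₂ Φ₁ g₁ := by
  obtain ⟨e, h1, h2, h3⟩ := h
  exact ⟨e.trans (LinearEquiv.prodComm F V₁ V₂), fun u v => (h1 u v).trans (add_comm _ _),
    fun v => (h2 v).trans (add_comm _ _), fun v => congrArg Prod.swap (h3 v)⟩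

theorem spl_iso (h : Spl Φ g Φ₁ g₁ Φ₂ g₂) (i : Iso Φ g Φ' g') : Spl Φ' g' Φ₁ g₁ Φ₂ g₂ := by
  obtain ⟨e, h1, h2, h3⟩ := h
  obtain ⟨i, k1, k2, k3⟩ := i.symm
  exact ⟨i.trans e, fun u v => (k1 u v).symm.trans (h1 _ _), fun v => (k2 v).symm.trans (h2 _),
    fun v => (congrArg e (k3 v)).trans (h3 _)⟩

theorem spl_left (h : Spl Φ g Φ₁ g₁ Φ₂ g₂) (i : Iso Φ₁ g₁ Φ₁' g₁') : Spl Φ g Φ₁' g₁' Φ₂ g₂ := by
  obtain ⟨e, h1, h2, h3⟩ := h
  obtain ⟨i, k1, k2, k3⟩ := i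
  refine ⟨e.trans (i.prodCongr (LinearEquiv.refl F V₂)), fun u v => ?_, fun v => ?_, fun v => ?_⟩
  · rw [h1, ← k1]; rfl
  · rw [h2, ← k2]; rfl
  · show (i (e (g.1 v)).1, (e (g.1 v)).2) = (g₁'.1 (i (e v).1), g₂.1 (e v).2)
    rw [h3, k3]

theorem spl_right (h : Spl Φ g Φ₁ g₁ Φ₂ g₂) (i : Iso Φ₂ g₂ Φ₂' g₂') : Spl Φ g Φ₁ g₁ Φ₂' g₂' :=
  spl_symm (spl_left (spl_symm h) i)

theorem spl_dim [FiniteDimensional F V₁] [FiniteDimensional F V₂] (h : Spl Φ g Φ₁ g₁ Φ₂ g₂) :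
    finrank F V = finrank F V₁ + finrank F V₂ := by rw [h.choose.finrank_eq, finrank_prod]

theorem spl_cf [FiniteDimensional F V] [FiniteDimensional F V₁] [FiniteDimensional F V₂] (h : Spl Φ g Φ₁ g₁ Φ₂ g₂)
    (φ : F[X]) (j : ℕ) : col (g.1 : End F V) φ j = col (g₁.1 : End F V₁) φ j + col (g₂.1 : End F V₂) φ j := by
  obtain ⟨e, -, -, h3⟩ := h
  rw [col_congr (T' := ((g₁.1 : End F V₁).prodMap (g₂.1 : End F V₂) : End F (V₁ × V₂))) e h3 φ]
  by_cases hφ : φ.Monic ∧ Irreducible φ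
  · rw [col_apply _ hφ.1 hφ.2, col_apply _ hφ.1 hφ.2, col_apply _ hφ.1 hφ.2, cf_prod _ _ hφ.1 hφ.2]
  · rw [not_not.1 fun h => hφ (col_mi (x := ((g₁.1 : End F V₁).prodMap (g₂.1 : End F V₂) : End F (V₁ × V₂))) h),
      not_not.1 fun h => hφ (col_mi (x := (g₁.1 : End F V₁)) h), not_not.1 fun h => hφ (col_mi (x := (g₂.1 : End F V₂)) h)]
    rfl

theorem spl_col [FiniteDimensional F V] [FiniteDimensional F V₁] [FiniteDimensional F V₂] (h : Spl Φ g Φ₁ g₁ Φ₂ g₂)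
    {φ : F[X]} (h0 : col (g₂.1 : End F V₂) φ = 0) : col (g.1 : End F V) φ = col (g₁.1 : End F V₁) φ :=
  Col.ext fun j => by rw [spl_cf h, h0, Col.zero_apply, add_zero]

theorem spl_ne [FiniteDimensional F V] [FiniteDimensional F V₁] [FiniteDimensional F V₂] (h : Spl Φ g Φ₁ g₁ Φ₂ g₂)
    {φ : F[X]} : col (g.1 : End F V) φ ≠ 0 ↔ col (g₁.1 : End F V₁) φ ≠ 0 ∨ col (g₂.1 : End F V₂) φ ≠ 0 := by
  rw [← not_and_or, not_iff_not]
  constructor
  · intro h0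
    have h1 := fun j => spl_cf h φ j
    simp only [h0, Col.zero_apply] at h1
    exact ⟨Col.ext fun j => by have := h1 j; rw [Col.zero_apply]; omega,
      Col.ext fun j => by have := h1 j; rw [Col.zero_apply]; omega⟩
  · rintro ⟨h1, h2⟩
    rw [spl_col h h2, h1]

/-- the orthogonal sum of two spaces -/
def sm (Φ₁ : Fm o F V₁) (Φ₂ : Fm o F V₂) : Fm o F (V₁ × V₂) where
  B := Φ₁.B.compl₁₂ (LinearMap.fst F V₁ V₂) (LinearMap.fst F V₁ V₂) +
    Φ₂.B.compl₁₂ (LinearMap.snd F V₁ V₂) (LinearMap.snd F V₁ V₂)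
  Q := Φ₁.Q.comp (LinearMap.fst F V₁ V₂) + Φ₂.Q.comp (LinearMap.snd F V₁ V₂)
  nd := ⟨fun x h => Prod.ext (Φ₁.nd.1 _ fun y => by simpa using h (y, 0)) (Φ₂.nd.1 _ fun y => by simpa using h (0, y)),
    fun x h => Prod.ext (Φ₁.nd.2 _ fun y => by simpa using h (y, 0)) (Φ₂.nd.2 _ fun y => by simpa using h (0, y))⟩
  sp h := ⟨fun x => by
    show Φ₁.B x.1 x.1 + Φ₂.B x.2 x.2 = 0
    rw [(Φ₁.sp h).1, (Φ₂.sp h).1, add_zero], by rw [(Φ₁.sp h).2, (Φ₂.sp h).2]; ext x; simp⟩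
  og h := by
    refine LinearMap.ext₂ fun u v => ?_
    show Φ₁.Q (u.1 + v.1) + Φ₂.Q (u.2 + v.2) - (Φ₁.Q u.1 + Φ₂.Q u.2) - (Φ₁.Q v.1 + Φ₂.Q v.2) = Φ₁.B u.1 v.1 + Φ₂.B u.2 v.2
    rw [Φ₁.polar h, Φ₂.polar h]
    ring

theorem exists_sum (g₁ : Φ₁.G) (g₂ : Φ₂.G) : ∃ g : (sm Φ₁ Φ₂).G, Spl (sm Φ₁ Φ₂) g Φ₁ g₁ Φ₂ g₂ :=
  ⟨⟨g₁.1.prodCongr g₂.1, fun u v => congrArg₂ (· + ·) (g₁.2.1 u.1 v.1) (g₂.2.1 u.2 v.2),
    fun v => congrArg₂ (· + ·) (g₁.2.2 v.1) (g₂.2.2 v.2)⟩, LinearEquiv.refl F _, fun _ _ => rfl, fun _ => rfl, fun _ => rfl⟩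

/-- a splitting with a trivial first summand -/
theorem iso_of_sub (h : Spl Φ g Φ₁ g₁ Φ₂ g₂) (h0 : ∀ v : V₁, v = 0) : Iso Φ g Φ₂ g₂ := by
  obtain ⟨e, h1, h2, h3⟩ := h
  refine ⟨LinearEquiv.ofBijective (LinearMap.snd F V₁ V₂ ∘ₗ e.toLinearMap)
    ⟨fun u v huv => e.injective (Prod.ext ((h0 _).trans (h0 _).symm) huv), fun y => ⟨e.symm (0, y), by simp⟩⟩,
    fun u v => ?_, fun v => ?_, fun v => congrArg Prod.snd (h3 v)⟩
  · rw [h1, h0 (e u).1, map_zero, LinearMap.zero_apply, zero_add]; rfl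
  · rw [h2, h0 (e v).1, map_zero, zero_add]; rfl

/-- the sum of two isometries -/
noncomputable def isProd (h : Spl Φ g Φ₁ g₁ Φ₂ g₂) (h' : Spl Φ' g' Φ₁' g₁' Φ₂' g₂')
    (c : Is Φ₁ g₁ Φ₁' g₁' × Is Φ₂ g₂ Φ₂' g₂') : Is Φ g Φ' g' :=
  ⟨(h.choose.trans (c.1.1.prodCongr c.2.1)).trans h'.choose.symm, fun u v => by
    rw [h'.choose_spec.1, h.choose_spec.1, ← c.1.2.1, ← c.2.2.1]
    simp only [LinearEquiv.trans_apply, LinearEquiv.apply_symm_apply]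
    rfl, fun v => by
    rw [h'.choose_spec.2.1, h.choose_spec.2.1, ← c.1.2.2.1, ← c.2.2.2.1]
    simp only [LinearEquiv.trans_apply, LinearEquiv.apply_symm_apply]
    rfl, fun v => h'.choose.injective (by
    rw [h'.choose_spec.2.2]
    simp only [LinearEquiv.trans_apply, LinearEquiv.apply_symm_apply]
    rw [h.choose_spec.2.2]
    exact Prod.ext (c.1.2.2.2 _) (c.2.2.2.2 _))⟩

theorem isProd_apply (h : Spl Φ g Φ₁ g₁ Φ₂ g₂) (h' : Spl Φ' g' Φ₁' g₁' Φ₂' g₂')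
    (c : Is Φ₁ g₁ Φ₁' g₁' × Is Φ₂ g₂ Φ₂' g₂') (y : V₁ × V₂) :
    h'.choose ((isProd h h' c).1 (h.choose.symm y)) = (c.1.1 y.1, c.2.1 y.2) := by
  show h'.choose (h'.choose.symm ((c.1.1.prodCongr c.2.1) (h.choose (h.choose.symm y)))) = _
  rw [LinearEquiv.apply_symm_apply, LinearEquiv.apply_symm_apply]
  rfl

theorem is_sum (h : Spl Φ g Φ₁ g₁ Φ₂ g₂) (h' : Spl Φ' g' Φ₁' g₁' Φ₂' g₂') (i₁ : Iso Φ₁ g₁ Φ₁' g₁') (i₂ : Iso Φ₂ g₂ Φ₂' g₂') :
    Iso Φ g Φ' g' := iso_iff.2 ⟨isProd h h' ((iso_iff.1 i₁).some, (iso_iff.1 i₂).some)⟩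

theorem isProd_inj (h : Spl Φ g Φ₁ g₁ Φ₂ g₂) (h' : Spl Φ' g' Φ₁' g₁' Φ₂' g₂') : Function.Injective (isProd h h') := by
  intro c c' e
  refine Prod.ext (Subtype.ext (LinearEquiv.ext fun v => ?_)) (Subtype.ext (LinearEquiv.ext fun v => ?_))
  · exact congrArg Prod.fst ((isProd_apply h h' c (v, 0)).symm.trans (e ▸ isProd_apply h h' c' (v, 0)))
  · exact congrArg Prod.snd ((isProd_apply h h' c (0, v)).symm.trans (e ▸ isProd_apply h h' c' (0, v)))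

variable [FiniteDimensional F V₁] [FiniteDimensional F V₂] [FiniteDimensional F V₁'] [FiniteDimensional F V₂']

theorem isProd_surj (h : Spl Φ g Φ₁ g₁ Φ₂ g₂) (h' : Spl Φ' g' Φ₁' g₁' Φ₂' g₂') (d₁ : Dj (g₁.1 : End F V₁) (g₂'.1 : End F V₂'))
    (d₂ : Dj (g₂.1 : End F V₂) (g₁'.1 : End F V₁')) : Function.Surjective (isProd h h') := by
  intro i
  obtain ⟨h1, h2, h3⟩ := h.choose_spec
  obtain ⟨k1, k2, k3⟩ := h'.choose_spec
  obtain ⟨j, hj⟩ : ∃ j : (V₁ × V₂) ≃ₗ[F] V₁' × V₂', ∀ y, j y = h'.choose (i.1 (h.choose.symm y)) :=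
    ⟨(h.choose.symm.trans i.1).trans h'.choose, fun _ => rfl⟩
  have e0 : ∀ y : V₁ × V₂, j (g₁.1 y.1, g₂.1 y.2) = (g₁'.1 (j y).1, g₂'.1 (j y).2) := fun y => by
    rw [hj, hj, ← k3, ← i.2.2.2]
    congr 2
    rw [LinearEquiv.symm_apply_eq, h3, LinearEquiv.apply_symm_apply]
  have eB : ∀ y z : V₁ × V₂, Φ₁'.B (j y).1 (j z).1 + Φ₂'.B (j y).2 (j z).2 = Φ₁.B y.1 z.1 + Φ₂.B y.2 z.2 := fun y z => by
    rw [hj, hj, ← k1, i.2.1, h1, LinearEquiv.apply_symm_apply, LinearEquiv.apply_symm_apply]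
  have eQ : ∀ y : V₁ × V₂, Φ₁'.Q (j y).1 + Φ₂'.Q (j y).2 = Φ₁.Q y.1 + Φ₂.Q y.2 := fun y => by
    rw [hj, ← k2, i.2.2.1, h2, LinearEquiv.apply_symm_apply]
  have e1 : ∀ v, (j (v, 0)).2 = 0 := LinearMap.congr_fun
    (d₁.zero (LinearMap.snd F _ _ ∘ₗ j.toLinearMap ∘ₗ LinearMap.inl F _ _) fun v => by
      simpa using congrArg Prod.snd (e0 (v, 0)))
  have e2 : ∀ v, (j (0, v)).1 = 0 := LinearMap.congr_fun
    (d₂.zero (LinearMap.fst F _ _ ∘ₗ j.toLinearMap ∘ₗ LinearMap.inr F _ _) fun v => by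
      simpa using congrArg Prod.fst (e0 (0, v)))
  have e3 : ∀ y : V₁ × V₂, j y = ((j (y.1, 0)).1, (j (0, y.2)).2) := fun y => by
    have : j y = j (y.1, 0) + j (0, y.2) := by rw [← map_add]; simp
    rw [this]
    exact Prod.ext (by rw [Prod.fst_add, e2, add_zero]) (by rw [Prod.snd_add, e1, zero_add])
  refine ⟨(⟨LinearEquiv.ofBijective (LinearMap.fst F _ _ ∘ₗ j.toLinearMap ∘ₗ LinearMap.inl F _ _) ⟨fun u v e => ?_, fun v => ?_⟩,
      fun u v => ?_, fun v => ?_, fun v => ?_⟩,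
    ⟨LinearEquiv.ofBijective (LinearMap.snd F _ _ ∘ₗ j.toLinearMap ∘ₗ LinearMap.inr F _ _) ⟨fun u v e => ?_, fun v => ?_⟩,
      fun u v => ?_, fun v => ?_, fun v => ?_⟩), ?_⟩
  · exact congrArg Prod.fst (j.injective (a₁ := (u, 0)) (a₂ := (v, 0)) (Prod.ext e ((e1 u).trans (e1 v).symm)))
  · exact ⟨(j.symm (v, 0)).1, congrArg Prod.fst ((e3 _).symm.trans (j.apply_symm_apply (v, 0)))⟩
  · show Φ₁'.B (j (u, 0)).1 (j (v, 0)).1 = _
    simpa [e1] using eB (u, 0) (v, 0)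
  · show Φ₁'.Q (j (v, 0)).1 = _
    simpa [e1] using eQ (v, 0)
  · show (j (g₁.1 v, 0)).1 = g₁'.1 (j (v, 0)).1
    simpa using congrArg Prod.fst (e0 (v, 0))
  · exact congrArg Prod.snd (j.injective (a₁ := (0, u)) (a₂ := (0, v)) (Prod.ext ((e2 u).trans (e2 v).symm) e))
  · exact ⟨(j.symm (0, v)).2, congrArg Prod.snd ((e3 _).symm.trans (j.apply_symm_apply (0, v)))⟩
  · show Φ₂'.B (j (0, u)).2 (j (0, v)).2 = _
    simpa [e2] using eB (0, u) (0, v)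
  · show Φ₂'.Q (j (0, v)).2 = _
    simpa [e2] using eQ (0, v)
  · show (j (0, g₂.1 v)).2 = g₂'.1 (j (0, v)).2
    simpa using congrArg Prod.snd (e0 (0, v))
  · refine Subtype.ext (LinearEquiv.ext fun v => h'.choose.injective ?_)
    obtain ⟨y, rfl⟩ := h.choose.symm.surjective v
    rw [isProd_apply, ← hj, e3]
    rfl

theorem is_cancel (h : Spl Φ g Φ₁ g₁ Φ₂ g₂) (h' : Spl Φ' g' Φ₁' g₁' Φ₂' g₂') (d₁ : Dj (g₁.1 : End F V₁) (g₂'.1 : End F V₂'))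
    (d₂ : Dj (g₂.1 : End F V₂) (g₁'.1 : End F V₁')) (i : Iso Φ g Φ' g') : Iso Φ₁ g₁ Φ₁' g₁' ∧ Iso Φ₂ g₂ Φ₂' g₂' := by
  obtain ⟨c, -⟩ := isProd_surj h h' d₁ d₂ (iso_iff.1 i).some
  exact ⟨iso_iff.2 ⟨c.1⟩, iso_iff.2 ⟨c.2⟩⟩

theorem cen_spl (h : Spl Φ g Φ₁ g₁ Φ₂ g₂) (d : Dj (g₁.1 : End F V₁) (g₂.1 : End F V₂)) :
    Nat.card (Subgroup.centralizer ({g} : Set Φ.G)) =
      Nat.card (Subgroup.centralizer ({g₁} : Set Φ₁.G)) * Nat.card (Subgroup.centralizer ({g₂} : Set Φ₂.G)) := by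
  rw [card_cen, card_cen, card_cen, ← Nat.card_prod]
  exact (Nat.card_congr (Equiv.ofBijective _ ⟨isProd_inj h h, isProd_surj h h d d.symm⟩)).symm

/-! ### the primary splitting -/

/-- `P` is self dual for `g` -/
def Sd (g : Φ.G) (P : F[X]) : Prop :=
  ∃ R : F[X], ∀ u v, Φ.B (aeval (g.1 : End F V) P u) v = Φ.B u (aeval (g.1 : End F V) (R * P) v)

theorem Sd.one (g : Φ.G) : Sd g 1 := ⟨1, fun u v => by simp⟩

theorem Sd.mul {P P' : F[X]} (h : Sd g P) (h' : Sd g P') : Sd g (P * P') := by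
  obtain ⟨R, h⟩ := h
  obtain ⟨R', h'⟩ := h'
  refine ⟨R' * R, fun u v => ?_⟩
  rw [map_mul, Module.End.mul_apply, h, h', ← Module.End.mul_apply, ← map_mul]
  congr 3
  ring

theorem Sd.pow {P : F[X]} (h : Sd g P) : ∀ n, Sd g (P ^ n)
  | 0 => by rw [pow_zero]; exact Sd.one g
  | n + 1 => by rw [pow_succ]; exact (h.pow n).mul h

theorem Sd.prod {ι : Type} (s : Finset ι) {P : ι → F[X]} (h : ∀ i ∈ s, Sd g (P i)) : Sd g (∏ i ∈ s, P i) :=
  Finset.prod_induction _ _ (fun _ _ => Sd.mul) (Sd.one g) h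

theorem pow_apply (g : Φ.G) : ∀ (n : ℕ) (v : V), ((g.1 : End F V) ^ n) v = (g ^ n).1 v
  | 0, _ => rfl
  | n + 1, v => by rw [pow_succ, pow_succ, Module.End.mul_apply, pow_apply g n]; rfl

theorem B_aeval {m : ℕ} (hm : g ^ (m + 1) = 1) (P : F[X]) (u v : V) :
    Φ.B (aeval (g.1 : End F V) P u) v = Φ.B u (aeval (g.1 : End F V) (P.comp (X ^ m)) v) := by
  rw [aeval_comp, aeval_X_pow]
  induction P using Polynomial.induction_on' with
  | add p q hp hq => simp only [map_add, LinearMap.add_apply, hp, hq]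
  | monomial n a =>
    rw [aeval_monomial, aeval_monomial, Module.End.mul_apply, Module.End.mul_apply, Module.algebraMap_end_apply,
      Module.algebraMap_end_apply, map_smul, map_smul, LinearMap.smul_apply, ← pow_mul, pow_apply, pow_apply,
      ← (g ^ n).2.1 u]
    congr 2
    have h : g ^ n * g ^ (m * n) = 1 := by rw [← pow_add, show n + m * n = (m + 1) * n by ring, pow_mul, hm, one_pow]
    exact (LinearEquiv.congr_fun (congrArg Subtype.val h) v).symm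

theorem fin_order {K : Type} [Field K] [Algebra F K] [Algebra.IsAlgebraic F K] (lam : Kˣ) : 0 < orderOf lam := by
  have := Fintype.ofFinite F
  have h1 := pow_card_deg (F := F) lam
  have h2 : 1 < Fintype.card F ^ (mp F lam).natDegree :=
    Nat.one_lt_pow (mp_irr (F := F) lam).natDegree_pos.ne' Fintype.one_lt_card
  obtain ⟨k, hk⟩ := Nat.exists_eq_add_of_lt h2
  rw [hk, add_comm 1 k, pow_succ, mul_eq_right] at h1
  exact (isOfFinOrder_iff_pow_eq_one.2 ⟨k + 1, Nat.succ_pos k, h1⟩).orderOf_pos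

theorem mp_dvd {K : Type} [Field K] [Algebra F K] [Algebra.IsAlgebraic F K] {lam : Kˣ} {m : ℕ} (h : lam ^ (m + 1) = 1) :
    mp F lam⁻¹ ∣ (mp F lam).comp (X ^ m) := by
  refine minpoly.dvd F _ ?_
  rw [aeval_comp, aeval_X_pow, ← Units.val_pow_eq_pow_val, inv_pow,
    inv_eq_of_mul_eq_one_right ((pow_succ lam m).symm.trans h)]
  exact mp_aeval lam

theorem sd_mp [FiniteDimensional F V] {K : Type} [Field K] [Algebra F K] [Algebra.IsAlgebraic F K] (g : Φ.G) (lam : Kˣ) :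
    Sd g (mp F lam * mp F lam⁻¹) := by
  have := Module.finite_of_finite F (M := V)
  obtain ⟨m, hm⟩ := Nat.exists_eq_succ_of_ne_zero (Nat.mul_pos (orderOf_pos g) (fin_order (F := F) lam)).ne'
  have h1 : g ^ (m + 1) = 1 := by rw [← Nat.succ_eq_add_one, ← hm, pow_mul, pow_orderOf_eq_one, one_pow]
  have h2 : lam ^ (m + 1) = 1 := by rw [← Nat.succ_eq_add_one, ← hm, mul_comm, pow_mul, pow_orderOf_eq_one, one_pow]
  obtain ⟨a, ha⟩ := mp_dvd (F := F) h2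
  obtain ⟨b, hb⟩ := mp_dvd (F := F) (lam := lam⁻¹) (m := m) (by rw [inv_pow, h2, inv_one])
  rw [inv_inv] at hb
  refine ⟨a * b, fun u v => ?_⟩
  rw [B_aeval h1, mul_comp, ha, hb]
  congr 3
  ring

/-- the restriction of an isometry to an invariant nondegenerate subspace -/
noncomputable def rs [FiniteDimensional F V] (g : Φ.G) (W : Submodule F V) (h : ∀ w ∈ W, (∀ w' ∈ W, Φ.B w w' = 0) → w = 0)
    (hW : ∀ w ∈ W, (g.1 : End F V) w ∈ W) : (Φ.res W h).G :=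
  ⟨LinearEquiv.ofInjectiveEndo ((g.1 : End F V).restrict hW) fun _ _ e => Subtype.ext (g.1.injective (congrArg Subtype.val e)),
    fun u v => g.2.1 u.1 v.1, fun v => g.2.2 v.1⟩

/-- an orthogonal decomposition into invariant subspaces -/
theorem spl_of [FiniteDimensional F V] (g : Φ.G) {A C : Submodule F V} (hc : IsCompl A C) (ho : ∀ a ∈ A, ∀ c ∈ C, Φ.B a c = 0)
    (hA : ∀ w ∈ A, (g.1 : End F V) w ∈ A) (hC : ∀ w ∈ C, (g.1 : End F V) w ∈ C) :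
    ∃ h₁ h₂, Spl Φ g (Φ.res A h₁) (rs g A h₁ hA) (Φ.res C h₂) (rs g C h₂ hC) := by
  have h0 : ∀ v, ∃ a ∈ A, ∃ c ∈ C, a + c = v := fun v => Submodule.mem_sup.1 (hc.sup_eq_top ▸ Submodule.mem_top)
  refine ⟨fun w hw h => Φ.nd.1 w fun v => ?_, fun w hw h => Φ.nd.1 w fun v => ?_, (Submodule.prodEquivOfIsCompl A C hc).symm,
    fun u v => ?_, fun v => ?_, fun v => ?_⟩
  · obtain ⟨a, ha, c, hc, rfl⟩ := h0 v
    rw [map_add, h a ha, ho w hw c hc, add_zero]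
  · obtain ⟨a, ha, c, hc, rfl⟩ := h0 v
    rw [map_add, h c hc, Φ.refl _ _ (ho a ha w hw), add_zero]
  · obtain ⟨y, rfl⟩ := (Submodule.prodEquivOfIsCompl A C hc).surjective u
    obtain ⟨z, rfl⟩ := (Submodule.prodEquivOfIsCompl A C hc).surjective v
    rw [LinearEquiv.symm_apply_apply, LinearEquiv.symm_apply_apply]
    show Φ.B (y.1.1 + y.2.1) (z.1.1 + z.2.1) = Φ.B y.1.1 z.1.1 + Φ.B y.2.1 z.2.1
    rw [map_add, map_add, LinearMap.add_apply, LinearMap.add_apply, ho _ y.1.2 _ z.2.2, Φ.refl _ _ (ho _ z.1.2 _ y.2.2),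
      add_zero, zero_add]
  · obtain ⟨y, rfl⟩ := (Submodule.prodEquivOfIsCompl A C hc).surjective v
    rw [LinearEquiv.symm_apply_apply]
    show Φ.Q (y.1.1 + y.2.1) = Φ.Q y.1.1 + Φ.Q y.2.1
    rw [Φ.Q_add, ho _ y.1.2 _ y.2.2, mul_zero, add_zero]
  · obtain ⟨y, rfl⟩ := (Submodule.prodEquivOfIsCompl A C hc).surjective v
    rw [LinearEquiv.symm_apply_apply, LinearEquiv.symm_apply_eq]
    exact map_add g.1 y.1.1 y.2.1

theorem aeval_rs [FiniteDimensional F V] (g : Φ.G) (W : Submodule F V) (h : ∀ w ∈ W, (∀ w' ∈ W, Φ.B w w' = 0) → w = 0)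
    (hW : ∀ w ∈ W, (g.1 : End F V) w ∈ W) (P : F[X]) (v : W) :
    (aeval ((rs g W h hW).1 : End F W) P v : V) = aeval (g.1 : End F V) P v :=
  aeval_intertwine (T := ((rs g W h hW).1 : End F W)) (T' := (g.1 : End F V)) W.subtype (fun _ => rfl) P v

/-- **the primary splitting** -/
theorem exists_spl [FiniteDimensional F V] {P : F[X]} (h : Sd g P) :
    ∃ (A C : Submodule F V) (Φ₁ : Fm o F A) (g₁ : Φ₁.G) (Φ₂ : Fm o F C) (g₂ : Φ₂.G), Spl Φ g Φ₁ g₁ Φ₂ g₂ ∧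
      (∀ φ, col (g₁.1 : End F A) φ ≠ 0 → φ ∣ P) ∧ ∀ φ, φ ∣ P → col (g₂.1 : End F C) φ = 0 := by
  obtain ⟨n, hn⟩ := Filter.eventually_atTop.1 (LinearMap.eventually_isCompl_ker_pow_range_pow (aeval (g.1 : End F V) P))
  have hc := hn (n + 1) (Nat.le_succ n)
  rw [← map_pow] at hc
  obtain ⟨R, hR⟩ := h.pow (n + 1)
  have h1 : ∀ v, aeval (g.1 : End F V) (P ^ (n + 1)) (g.1 v) = g.1 (aeval (g.1 : End F V) (P ^ (n + 1)) v) := fun v =>
    (aeval_intertwine (T := (g.1 : End F V)) (T' := (g.1 : End F V)) (g.1 : End F V) (fun _ => rfl) _ v).symm ▸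
      LinearMap.congr_fun (show aeval (g.1 : End F V) (P ^ (n + 1)) * (g.1 : End F V) = aeval (g.1 : End F V) (P ^ (n + 1)) *
        (g.1 : End F V) from rfl) v
  obtain ⟨h₁, h₂, hs⟩ := spl_of g hc (fun a ha c hc => by
      obtain ⟨u, rfl⟩ := hc
      refine Φ.refl _ _ ?_
      rw [hR, map_mul, Module.End.mul_apply, LinearMap.mem_ker.1 ha, map_zero, map_zero])
    (fun w hw => by
      show aeval (g.1 : End F V) (P ^ (n + 1)) (g.1 w) = 0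
      rw [h1, LinearMap.mem_ker.1 hw, map_zero])
    (by
      rintro _ ⟨u, rfl⟩
      exact ⟨g.1 u, h1 u⟩)
  refine ⟨_, _, _, _, _, _, hs, fun φ hφ => dvd_of_col (n := n + 1) (LinearMap.ext fun v => Subtype.ext ?_) hφ,
    fun φ hφ => col_of_inj (P := P ^ (n + 1)) ((injective_iff_map_eq_zero _).2 fun v hv => Subtype.ext ?_)
      (hφ.trans (dvd_pow_self P (Nat.succ_ne_zero n)))⟩
  · rw [aeval_rs]
    exact v.2
  · have h2 := congrArg Subtype.val hv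
    rw [aeval_rs] at h2
    exact (Submodule.eq_bot_iff _).1 hc.inf_eq_bot v.1 ⟨h2, v.2⟩

/-- **the splitting along a finite family of classes** -/
theorem exists_spl_set [FiniteDimensional F V] {K : Type} [Field K] [Algebra F K] [Algebra.IsAlgebraic F K] {ι : Type}
    (s : Finset ι) (lam : ι → Kˣ) (g : Φ.G) :
    ∃ (A C : Submodule F V) (Φ₁ : Fm o F A) (g₁ : Φ₁.G) (Φ₂ : Fm o F C) (g₂ : Φ₂.G), Spl Φ g Φ₁ g₁ Φ₂ g₂ ∧
      (∀ φ, col (g₁.1 : End F A) φ ≠ 0 → ∃ i ∈ s, φ = mp F (lam i) ∨ φ = mp F (lam i)⁻¹) ∧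
      ∀ i ∈ s, col (g₂.1 : End F C) (mp F (lam i)) = 0 ∧ col (g₂.1 : End F C) (mp F (lam i)⁻¹) = 0 := by
  obtain ⟨A, C, Φ₁, g₁, Φ₂, g₂, h1, h2, h3⟩ := exists_spl (Sd.prod s fun i _ => sd_mp g (lam i))
  refine ⟨A, C, Φ₁, g₁, Φ₂, g₂, h1, fun φ hφ => ?_, fun i hi =>
    ⟨h3 _ ((dvd_mul_right _ _).trans (Finset.dvd_prod_of_mem _ hi)), h3 _ ((dvd_mul_left _ _).trans (Finset.dvd_prod_of_mem _ hi))⟩⟩
  obtain ⟨h4, h5⟩ := col_mi hφ
  obtain ⟨i, hi, h6⟩ := (Prime.dvd_finsetProd_iff h5.prime _).1 (h2 φ hφ)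
  refine ⟨i, hi, (h5.prime.dvd_or_dvd h6).imp (fun h => ?_) fun h => ?_⟩
  · exact eq_of_monic_of_associated h4 (mp_monic _) (h5.associated_of_dvd (mp_irr _) h)
  · exact eq_of_monic_of_associated h4 (mp_monic _) (h5.associated_of_dvd (mp_irr _) h)

/-- the columns at `lam` and at `lam⁻¹` vanish together -/
theorem col_inv [FiniteDimensional F V] {K : Type} [Field K] [Algebra F K] [Algebra.IsAlgebraic F K] (g : Φ.G) (lam : Kˣ)
    (h : col (g.1 : End F V) (mp F lam) = 0) : col (g.1 : End F V) (mp F lam⁻¹) = 0 := by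
  have := Module.finite_of_finite F (M := V)
  obtain ⟨m, hm⟩ := Nat.exists_eq_succ_of_ne_zero (Nat.mul_pos (orderOf_pos g) (fin_order (F := F) lam)).ne'
  have h1 : g ^ (m + 1) = 1 := by rw [← Nat.succ_eq_add_one, ← hm, pow_mul, pow_orderOf_eq_one, one_pow]
  have h2 : lam ^ (m + 1) = 1 := by rw [← Nat.succ_eq_add_one, ← hm, mul_comm, pow_mul, pow_orderOf_eq_one, one_pow]
  obtain ⟨a, ha⟩ := mp_dvd (F := F) h2
  rw [kd_zero_iff _ (mp_monic _) (mp_irr _), kd, pow_one, Submodule.finrank_eq_zero] at h ⊢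
  have h3 := LinearMap.injective_iff_surjective.1 (LinearMap.ker_eq_bot.1 h)
  refine (Submodule.eq_bot_iff _).2 fun v hv => Φ.nd.2 v fun u => ?_
  obtain ⟨u, rfl⟩ := h3 u
  rw [B_aeval h1, ha, mul_comm, map_mul, Module.End.mul_apply, LinearMap.mem_ker.1 hv, map_zero, map_zero]

end Cfsg.Agent.PQ.Gl
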